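import Cfsg.Agent.H245.KKL.Reyn
import Cfsg.Agent.H613.KS.Props

/-!
# S4577, pieces B3 and B10 (helper245): the Fong–Reynolds reduction and the existence of a covered block,
the 16-version of `H245/KKL/Reyn.lean`
-/

set_option autoImplicit false

open Cfsg Cfsg.Agent.H613.KS
open Cfsg.Agent.H613.KKL (Cov Inv)

namespace Cfsg.Agent.H245.KS

open Cfsg.Agent Cfsg.Agent.Characters.Core Cfsg.Agent.H245.KKL

universe u

theorem E16.map_equiv {A B : Type*} [Group A] [Group B] (e : A ≃* B) {D : Subgroup A} {E : Subgroup B}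
    (h : D.map e.toMonoidHom = E) (hE : E16 E) : E16 D := by
  refine ⟨?_, fun d hd => ?_⟩
  · rw [← hE.card, ← h]
    exact Nat.card_congr (D.equivMapOfInjective _ e.injective).toEquiv
  · apply e.injective
    rw [map_mul, map_one]
    exact hE.inv _ (h ▸ Subgroup.mem_map_of_mem _ hd)

section
variable {G : Type u} [Group G] [Finite G] {M : Ideal AlgInt} (hM : IsPModular 2 M) {B : Set (IrrCharacter G)}
  (hB : IsPBlock M B) {D : Subgroup G} (hD : IsDefectGroup 2 M B D) (h16 : E16 D)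
include hM hB hD h16

/-- B3: Fong–Reynolds. -/
theorem B3 (N : Subgroup G) [N.Normal] (b : Set (IrrCharacter ↥N)) (hb : IsPBlock M b) (hcov : Cov N b B)
    (T : Subgroup G) (hT : ∀ g : G, g ∈ T ↔ StabilizesBlock N b g) (hz : HZ ↥T) :
    ∀ χ ∈ B, blockHeight 2 B (χ : G → ℂ) = 0 := by
  classical
  have hprime : M.IsPrime := Blocks.Local.isPrime_of_isPModular hM
  have := Fintype.ofFinite G
  have := Fintype.ofFinite ↥N
  have := Fintype.ofFinite ↥T
  have hst := isStab_of hT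
  have hNT : N ≤ T := hst.le hb
  have hcov' : ∃ χ ∈ B, ∃ θ ∈ b, classInner (fun n : N => (χ : G → ℂ) n) (θ : N → ℂ) ≠ 0 := by
    obtain ⟨χ, hχ, θ, hθ, h⟩ := hcov
    refine ⟨χ, hχ, θ, hθ, ?_⟩
    convert h
  obtain ⟨B', hB', ⟨ψ₀, hψ₀, θ₀, hθ₀, h₀⟩, hind⟩ :=
    (S4435.result 2 M hM N b hb T hst hNT).2.2 B hB hcov'
  intro χ hχ
  obtain ⟨ψ, hψ, hχψ⟩ :=
    (H591.ReynoldsMain.mem_induced_iff 2 hM hb hst hNT hB' hψ₀ hθ₀ h₀ hind χ).1 hχ
  obtain ⟨hD1, hD2⟩ :=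
    S4436.result 2 M hM N b hb T hst hNT B' hB' ⟨ψ₀, hψ₀, θ₀, hθ₀, h₀⟩ B hind
  obtain ⟨χ', -, hχ', hheight⟩ := hD2 ψ hψ
  have hχχ : (χ' : G → ℂ) = (χ : G → ℂ) := by rw [hχ', hχψ]
  rw [hχχ] at hheight
  obtain ⟨D', hD'⟩ := H592.Defect.exists_defectGroup 2 hM hB'
  obtain ⟨x, hx⟩ := conj_defect 2 hM hB (hD1 D' hD') hD
  have h8' : E16 (D'.map T.subtype) := E16.map_equiv _ hx h16
  have h8'' : E16 D' := by
    refine ⟨?_, fun d hd => ?_⟩
    · rw [← h8'.card]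
      exact Nat.card_congr (D'.equivMapOfInjective _ T.subtype_injective).toEquiv
    · apply T.subtype_injective
      rw [map_mul, map_one]
      exact h8'.inv _ (Subgroup.mem_map_of_mem _ hd)
  rw [hheight]
  exact hz M hM B' hB' D' hD' h8'' ψ hψ

/-- B10: every subgroup has a covered block. -/
theorem B10 (N : Subgroup G) : ∃ b : Set (IrrCharacter ↥N), IsPBlock M b ∧ Cov N b B := by
  classical
  have hprime : M.IsPrime := Blocks.Local.isPrime_of_isPModular hM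
  obtain ⟨χ, hχ⟩ := Blocks.Basic.isPBlock_nonempty hB
  obtain ⟨θ, hθ⟩ := @exists_constituent G _ N (Fintype.ofFinite ↥N) χ
  exact ⟨blockOf M (θ : N → ℂ), Blocks.Basic.isPBlock_blockOf θ, χ, hχ, θ,
    Blocks.Basic.mem_blockOf_self θ, hθ⟩

end

theorem pb3 : Cfsg.Agent.H613.KS.Props.PB3.{u} := fun hM _ hB _ hD h N _ b hb hc T hT hz =>
  B3 hM hB hD h N b hb hc T hT hz

theorem pb10 : Cfsg.Agent.H613.KS.Props.PB10.{u} := fun hM _ hB _ hD h N => B10 hM hB hD h N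

end Cfsg.Agent.H245.KS
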